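import Cfsg.Agent.Lib.SporRecognition.Fi22Rep.Cox1
import Cfsg.Agent.Lib.SporRecognition.Fi22Rep.Cox2
import Cfsg.Agent.Lib.SporRecognition.Fi22Rep.Cox3
import Cfsg.Agent.Lib.SporRecognition.Fi22Rep.Cox4
import Cfsg.Agent.Lib.SporRecognition.Fi22Rep.Cox5
import Cfsg.Agent.Lib.SporRecognition.Fi22Rep.Spider
import Cfsg.Agent.Lib.SporRecognition.Fi22Rep.EseA
import Cfsg.Agent.Lib.SporRecognition.Fi22Rep.EseB

/-!
The 78-dimensional representation of the presented Fi22 over the field with thirteen elements.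
-/

set_option autoImplicit false
set_option maxRecDepth 20000
set_option maxHeartbeats 400000
set_option linter.constructorNameAsVariable false

namespace CfsgLib.SporRecognition.Fi22Rep

open Cfsg.Spor.Fi22 (Gen)

attribute [local irreducible] prodP toMat okP step

lemma okP_genRows : ∀ g : Gen, okP (genRows g) = true := fun g => by cases g <;> decide +kernel

lemma rows_one_eq : rows_one = oneP := by decide +kernel

lemma prod_eq_one {L : List Gen} (h : prodP (L.map genRows) = rows_one) :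
    (L.map fun g => toMat (genRows g)).prod = 1 := by
  have := prodP_spec (Bs := L.map genRows)
    (fun B hB => by obtain ⟨g, -, rfl⟩ := List.mem_map.mp hB; exact okP_genRows g)
  rw [h, rows_one_eq, toMat_oneP, List.map_map] at this
  exact this.symm

lemma square_genRows : ∀ g : Gen, prodP ([g, g].map genRows) = rows_one
  | .a => sq_a
  | .b => sq_b
  | .c => sq_c
  | .d => sq_d
  | .e => sq_e
  | .f => sq_f
  | .g => sq_g
  | .h => sq_h
  | .i => sq_i

lemma toMat_sq (g : Gen) : toMat (genRows g) * toMat (genRows g) = 1 := by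
  simpa using prod_eq_one (square_genRows g)

/-- The invertible matrix of a generator. -/
def unitOf (g : Gen) : GL (Fin 78) (ZMod 13) :=
  ⟨toMat (genRows g), toMat (genRows g), toMat_sq g, toMat_sq g⟩

lemma val_prod (L : List Gen) :
    ((L.map unitOf).prod : GL (Fin 78) (ZMod 13)).1 = (L.map fun g => toMat (genRows g)).prod := by
  induction L with
  | nil => rfl
  | cons g L ih => simp only [List.map_cons, List.prod_cons, Units.val_mul, ih]; rfl

lemma units_prod_eq_one {L : List Gen} (h : prodP (L.map genRows) = rows_one) :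
    (L.map unitOf).prod = 1 :=
  Units.ext (by rw [val_prod, prod_eq_one h]; rfl)

lemma rel_self (g : Gen) : (unitOf g * unitOf g) ^ 1 = 1 := by
  rw [pow_one]; simpa using units_prod_eq_one (square_genRows g)

lemma rel2 {g h : Gen} (e : prodP [genRows g, genRows h, genRows g, genRows h] = rows_one) :
    (unitOf g * unitOf h) ^ 2 = 1 := by
  have := units_prod_eq_one (L := [g, h, g, h]) e
  simpa [pow_two, mul_assoc] using this

lemma rel3 {g h : Gen}
    (e : prodP [genRows g, genRows h, genRows g, genRows h, genRows g, genRows h] = rows_one) :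
    (unitOf g * unitOf h) ^ 3 = 1 := by
  have := units_prod_eq_one (L := [g, h, g, h, g, h]) e
  simpa [pow_succ, mul_assoc] using this

lemma conj_rel {M : Type*} [Group M] {x y : M} {m : ℕ} (h : (x * y) ^ m = 1) : (y * x) ^ m = 1 := by
  rw [show y * x = y * (x * y) * y⁻¹ by group, conj_pow, h, mul_one, mul_inv_cancel]

lemma rel_swap {g h : Gen} {m : ℕ} (e : (unitOf g * unitOf h) ^ m = 1) :
    (unitOf h * unitOf g) ^ m = 1 := by
  rw [show unitOf h * unitOf g = unitOf h * (unitOf g * unitOf h) * (unitOf h)⁻¹ from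
    (by rw [mul_assoc, mul_assoc, mul_inv_cancel, mul_one]), conj_pow, e, mul_one, mul_inv_cancel]

theorem cox_rel_aux : ∀ g h : Gen, ∃ m : ℕ,
    Cfsg.Spor.coxLabel Cfsg.Spor.Fi22.edges g h = m ∧ (unitOf g * unitOf h) ^ m = 1 := by
  intro g h
  cases g with
  | a =>
    cases h
    exacts [
    ⟨1, by decide +kernel, rel_self .a⟩,
    ⟨3, by decide +kernel, rel3 (g := .a) (h := .b) cox_ab⟩,
    ⟨2, by decide +kernel, rel2 (g := .a) (h := .c) cox_ac⟩,
    ⟨2, by decide +kernel, rel2 (g := .a) (h := .d) cox_ad⟩,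
    ⟨2, by decide +kernel, rel2 (g := .a) (h := .e) cox_ae⟩,
    ⟨2, by decide +kernel, rel2 (g := .a) (h := .f) cox_af⟩,
    ⟨2, by decide +kernel, rel2 (g := .a) (h := .g) cox_ag⟩,
    ⟨2, by decide +kernel, rel2 (g := .a) (h := .h) cox_ah⟩,
    ⟨2, by decide +kernel, rel2 (g := .a) (h := .i) cox_ai⟩]
  | b =>
    cases h
    exacts [
    ⟨3, by decide +kernel, (rel_swap (rel3 (g := .a) (h := .b) cox_ab))⟩,
    ⟨1, by decide +kernel, rel_self .b⟩,
    ⟨3, by decide +kernel, rel3 (g := .b) (h := .c) cox_bc⟩,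
    ⟨2, by decide +kernel, rel2 (g := .b) (h := .d) cox_bd⟩,
    ⟨2, by decide +kernel, rel2 (g := .b) (h := .e) cox_be⟩,
    ⟨2, by decide +kernel, rel2 (g := .b) (h := .f) cox_bf⟩,
    ⟨2, by decide +kernel, rel2 (g := .b) (h := .g) cox_bg⟩,
    ⟨2, by decide +kernel, rel2 (g := .b) (h := .h) cox_bh⟩,
    ⟨2, by decide +kernel, rel2 (g := .b) (h := .i) cox_bi⟩]
  | c =>
    cases h
    exacts [
    ⟨2, by decide +kernel, (rel_swap (rel2 (g := .a) (h := .c) cox_ac))⟩,
    ⟨3, by decide +kernel, (rel_swap (rel3 (g := .b) (h := .c) cox_bc))⟩,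
    ⟨1, by decide +kernel, rel_self .c⟩,
    ⟨3, by decide +kernel, rel3 (g := .c) (h := .d) cox_cd⟩,
    ⟨2, by decide +kernel, rel2 (g := .c) (h := .e) cox_ce⟩,
    ⟨2, by decide +kernel, rel2 (g := .c) (h := .f) cox_cf⟩,
    ⟨2, by decide +kernel, rel2 (g := .c) (h := .g) cox_cg⟩,
    ⟨2, by decide +kernel, rel2 (g := .c) (h := .h) cox_ch⟩,
    ⟨2, by decide +kernel, rel2 (g := .c) (h := .i) cox_ci⟩]
  | d =>
    cases h
    exacts [
    ⟨2, by decide +kernel, (rel_swap (rel2 (g := .a) (h := .d) cox_ad))⟩,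
    ⟨2, by decide +kernel, (rel_swap (rel2 (g := .b) (h := .d) cox_bd))⟩,
    ⟨3, by decide +kernel, (rel_swap (rel3 (g := .c) (h := .d) cox_cd))⟩,
    ⟨1, by decide +kernel, rel_self .d⟩,
    ⟨3, by decide +kernel, rel3 (g := .d) (h := .e) cox_de⟩,
    ⟨2, by decide +kernel, rel2 (g := .d) (h := .f) cox_df⟩,
    ⟨2, by decide +kernel, rel2 (g := .d) (h := .g) cox_dg⟩,
    ⟨3, by decide +kernel, rel3 (g := .d) (h := .h) cox_dh⟩,
    ⟨2, by decide +kernel, rel2 (g := .d) (h := .i) cox_di⟩]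
  | e =>
    cases h
    exacts [
    ⟨2, by decide +kernel, (rel_swap (rel2 (g := .a) (h := .e) cox_ae))⟩,
    ⟨2, by decide +kernel, (rel_swap (rel2 (g := .b) (h := .e) cox_be))⟩,
    ⟨2, by decide +kernel, (rel_swap (rel2 (g := .c) (h := .e) cox_ce))⟩,
    ⟨3, by decide +kernel, (rel_swap (rel3 (g := .d) (h := .e) cox_de))⟩,
    ⟨1, by decide +kernel, rel_self .e⟩,
    ⟨3, by decide +kernel, rel3 (g := .e) (h := .f) cox_ef⟩,
    ⟨2, by decide +kernel, rel2 (g := .e) (h := .g) cox_eg⟩,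
    ⟨2, by decide +kernel, rel2 (g := .e) (h := .h) cox_eh⟩,
    ⟨2, by decide +kernel, rel2 (g := .e) (h := .i) cox_ei⟩]
  | f =>
    cases h
    exacts [
    ⟨2, by decide +kernel, (rel_swap (rel2 (g := .a) (h := .f) cox_af))⟩,
    ⟨2, by decide +kernel, (rel_swap (rel2 (g := .b) (h := .f) cox_bf))⟩,
    ⟨2, by decide +kernel, (rel_swap (rel2 (g := .c) (h := .f) cox_cf))⟩,
    ⟨2, by decide +kernel, (rel_swap (rel2 (g := .d) (h := .f) cox_df))⟩,
    ⟨3, by decide +kernel, (rel_swap (rel3 (g := .e) (h := .f) cox_ef))⟩,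
    ⟨1, by decide +kernel, rel_self .f⟩,
    ⟨3, by decide +kernel, rel3 (g := .f) (h := .g) cox_fg⟩,
    ⟨2, by decide +kernel, rel2 (g := .f) (h := .h) cox_fh⟩,
    ⟨2, by decide +kernel, rel2 (g := .f) (h := .i) cox_fi⟩]
  | g =>
    cases h
    exacts [
    ⟨2, by decide +kernel, (rel_swap (rel2 (g := .a) (h := .g) cox_ag))⟩,
    ⟨2, by decide +kernel, (rel_swap (rel2 (g := .b) (h := .g) cox_bg))⟩,
    ⟨2, by decide +kernel, (rel_swap (rel2 (g := .c) (h := .g) cox_cg))⟩,
    ⟨2, by decide +kernel, (rel_swap (rel2 (g := .d) (h := .g) cox_dg))⟩,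
    ⟨2, by decide +kernel, (rel_swap (rel2 (g := .e) (h := .g) cox_eg))⟩,
    ⟨3, by decide +kernel, (rel_swap (rel3 (g := .f) (h := .g) cox_fg))⟩,
    ⟨1, by decide +kernel, rel_self .g⟩,
    ⟨2, by decide +kernel, rel2 (g := .g) (h := .h) cox_gh⟩,
    ⟨2, by decide +kernel, rel2 (g := .g) (h := .i) cox_gi⟩]
  | h =>
    cases h
    exacts [
    ⟨2, by decide +kernel, (rel_swap (rel2 (g := .a) (h := .h) cox_ah))⟩,
    ⟨2, by decide +kernel, (rel_swap (rel2 (g := .b) (h := .h) cox_bh))⟩,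
    ⟨2, by decide +kernel, (rel_swap (rel2 (g := .c) (h := .h) cox_ch))⟩,
    ⟨3, by decide +kernel, (rel_swap (rel3 (g := .d) (h := .h) cox_dh))⟩,
    ⟨2, by decide +kernel, (rel_swap (rel2 (g := .e) (h := .h) cox_eh))⟩,
    ⟨2, by decide +kernel, (rel_swap (rel2 (g := .f) (h := .h) cox_fh))⟩,
    ⟨2, by decide +kernel, (rel_swap (rel2 (g := .g) (h := .h) cox_gh))⟩,
    ⟨1, by decide +kernel, rel_self .h⟩,
    ⟨3, by decide +kernel, rel3 (g := .h) (h := .i) cox_hi⟩]
  | i =>
    cases h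
    exacts [
    ⟨2, by decide +kernel, (rel_swap (rel2 (g := .a) (h := .i) cox_ai))⟩,
    ⟨2, by decide +kernel, (rel_swap (rel2 (g := .b) (h := .i) cox_bi))⟩,
    ⟨2, by decide +kernel, (rel_swap (rel2 (g := .c) (h := .i) cox_ci))⟩,
    ⟨2, by decide +kernel, (rel_swap (rel2 (g := .d) (h := .i) cox_di))⟩,
    ⟨2, by decide +kernel, (rel_swap (rel2 (g := .e) (h := .i) cox_ei))⟩,
    ⟨2, by decide +kernel, (rel_swap (rel2 (g := .f) (h := .i) cox_fi))⟩,
    ⟨2, by decide +kernel, (rel_swap (rel2 (g := .g) (h := .i) cox_gi))⟩,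
    ⟨3, by decide +kernel, (rel_swap (rel3 (g := .h) (h := .i) cox_hi))⟩,
    ⟨1, by decide +kernel, rel_self .i⟩]


theorem cox_rel (g h : Gen) :
    (unitOf g * unitOf h) ^ Cfsg.Spor.coxLabel Cfsg.Spor.Fi22.edges g h = 1 := by
  obtain ⟨m, hm, h'⟩ := cox_rel_aux g h
  rw [hm]; exact h'

lemma toMat_of_two {R A B C : List ℕ} (hA : okP A = true) (hB : okP B = true)
    (h : prodP [A, B] = C) (_ : R = A) : toMat C = toMat A * toMat B := by
  rw [← h, prodP_spec (by simp [hA, hB])]
  simp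

lemma pow_of_certificates {w : List Gen} {W W2 W4 W8 : List ℕ}
    (h1 : prodP (w.map genRows) = W) (h2 : prodP [W, W] = W2) (h4 : prodP [W2, W2] = W4)
    (h8 : prodP [W4, W4] = W8) (o1 : okP W = true) (o2 : okP W2 = true) (o4 : okP W4 = true)
    (o8 : okP W8 = true) :
    (prodP [W8, W] = rows_one → (w.map unitOf).prod ^ 9 = 1) ∧
      (prodP [W8, W2] = rows_one → (w.map unitOf).prod ^ 10 = 1) := by
  have e1 : ((w.map unitOf).prod : GL (Fin 78) (ZMod 13)).1 = toMat W := by
    rw [val_prod, ← h1, prodP_spec (fun B hB => by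
      obtain ⟨g, -, rfl⟩ := List.mem_map.mp hB; exact okP_genRows g), List.map_map]
    rfl
  have e2 := toMat_of_two o1 o1 h2 rfl
  have e4 := toMat_of_two o2 o2 h4 rfl
  have e8 := toMat_of_two o4 o4 h8 rfl
  constructor <;> intro he
  · have e9 := toMat_of_two o8 o1 he rfl
    rw [rows_one_eq, toMat_oneP, e8, e4, e2] at e9
    refine Units.ext ?_
    rw [Units.val_pow_eq_pow_val, e1, Units.val_one, e9]
    noncomm_ring
  · have e9 := toMat_of_two o8 o2 he rfl
    rw [rows_one_eq, toMat_oneP, e8, e4, e2] at e9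
    refine Units.ext ?_
    rw [Units.val_pow_eq_pow_val, e1, Units.val_one, e9]
    noncomm_ring

lemma spider_rel : ([.d, .c, .b, .d, .e, .f, .d, .h, .i].map unitOf).prod ^ 10 = 1 := by
  have h := pow_of_certificates (w := [.d, .c, .b, .d, .e, .f, .d, .h, .i]) spider_w1 spider_w2 spider_w4 spider_w8
    (by decide +kernel) (by decide +kernel) (by decide +kernel) (by decide +kernel)
  refine (h.2 spider_end)

lemma e7a_rel : ([.a, .b, .c, .d, .e, .f, .h].map unitOf).prod ^ 9 = 1 := by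
  have h := pow_of_certificates (w := [.a, .b, .c, .d, .e, .f, .h]) e7a_w1 e7a_w2 e7a_w4 e7a_w8
    (by decide +kernel) (by decide +kernel) (by decide +kernel) (by decide +kernel)
  refine (h.1 e7a_end)

lemma e7b_rel : ([.b, .c, .d, .e, .f, .g, .h].map unitOf).prod ^ 9 = 1 := by
  have h := pow_of_certificates (w := [.b, .c, .d, .e, .f, .g, .h]) e7b_w1 e7b_w2 e7b_w4 e7b_w8
    (by decide +kernel) (by decide +kernel) (by decide +kernel) (by decide +kernel)
  refine (h.1 e7b_end)

/-- The representation. -/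
noncomputable def rep : Cfsg.Spor.Fi22 →* GL (Fin 78) (ZMod 13) :=
  PresentedGroup.toGroup (f := unitOf) (by
    rintro r (⟨x, -, y, -, rfl⟩ | hr)
    · rw [map_pow, map_mul, FreeGroup.lift_apply_of, FreeGroup.lift_apply_of]
      exact cox_rel x y
    · simp only [Cfsg.Spor.Fi22.extra, List.mem_cons, List.not_mem_nil, or_false, Set.mem_ofPred_eq] at hr
      rcases hr with rfl | rfl | rfl <;> rw [map_pow] <;>
        simp only [map_mul, FreeGroup.lift_apply_of]
      · simpa [mul_assoc] using spider_rel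
      · simpa [mul_assoc] using e7a_rel
      · simpa [mul_assoc] using e7b_rel)


theorem exists_entry : ∃ i j : Fin 78, toMat (genRows .b) i j ≠ (1 : Matrix (Fin 78) (Fin 78) (ZMod 13)) i j := by
  refine ⟨1, 1, ?_⟩
  rw [Matrix.one_apply_eq]
  decide +kernel

theorem rep_ne_one : rep ≠ 1 := by
  intro h
  have hb : unitOf .b = 1 := by
    have := DFunLike.congr_fun h (PresentedGroup.of Gen.b)
    rwa [rep, PresentedGroup.toGroup.of] at this
  obtain ⟨i, j, hij⟩ := exists_entry
  have hv : (unitOf Gen.b).1 = 1 := by rw [hb]; exact Units.val_one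
  refine hij ?_
  simp only [unitOf] at hv
  rw [hv]

end CfsgLib.SporRecognition.Fi22Rep
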