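import Mathlib

/-!
Matrices over the field with thirteen elements with every row packed into one natural number, sixteen bits per entry,
and their products.
-/

set_option autoImplicit false

namespace CfsgLib.SporRecognition.Fi22Rep

open Finset

/-- Evaluates a number before it is passed on. -/
noncomputable def force (x : ℕ) (k : ℕ → ℕ) : ℕ :=
  Nat.rec (k 0) (fun p _ => k (Nat.succ p)) x

@[simp] lemma force_eq (x : ℕ) (k : ℕ → ℕ) : force x k = k x := by cases x <;> rfl

/-- A packed row. -/
def pack : ℕ → (ℕ → ℕ) → ℕ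
  | 0, _ => 0
  | n + 1, f => f 0 + 65536 * pack n fun j => f (j + 1)

/-- An entry of a packed row. -/
def dig (x j : ℕ) : ℕ := x / 65536 ^ j % 65536

lemma dig_succ (x j : ℕ) : dig x (j + 1) = dig (x / 65536) j := by
  simp only [dig, pow_succ', Nat.div_div_eq_div_mul]

lemma pack_eq_sum (n : ℕ) (f : ℕ → ℕ) : pack n f = ∑ j ∈ range n, 65536 ^ j * f j := by
  induction n generalizing f with
  | zero => rfl
  | succ n ih =>
    rw [pack, ih, sum_range_succ', pow_zero, one_mul, add_comm, mul_sum]
    congr 1
    exact sum_congr rfl fun j _ => by rw [pow_succ']; ring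

lemma dig_pack {n : ℕ} {f : ℕ → ℕ} (hf : ∀ j < n, f j < 65536) {j : ℕ} (hj : j < n) :
    dig (pack n f) j = f j := by
  induction n generalizing f j with
  | zero => omega
  | succ n ih =>
    have h0 := hf 0 (by omega)
    cases j with
    | zero => simp [dig, pack, Nat.add_mul_mod_self_left, Nat.mod_eq_of_lt h0]
    | succ j =>
      rw [dig_succ, pack, Nat.add_mul_div_left _ _ (by norm_num), Nat.div_eq_of_lt h0, zero_add]
      exact ih (fun k hk => hf (k + 1) (by omega)) (by omega)

/-- The combination of packed rows with the entries of a packed row as coefficients. -/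
noncomputable def comb (bs : List ℕ) : ℕ → ℕ :=
  List.rec (fun _ => 0)
    (fun b _ ih a => force a fun a => Nat.add (Nat.mul (Nat.mod a 65536) b) (ih (Nat.div a 65536))) bs

lemma comb_cons (b : ℕ) (bs : List ℕ) (a : ℕ) :
    comb (b :: bs) a = a % 65536 * b + comb bs (a / 65536) := by
  simp only [comb]
  rw [force_eq]
  rfl

lemma comb_eq (bs : List ℕ) (a : ℕ) :
    comb bs a = ∑ k ∈ range bs.length, dig a k * bs.getD k 0 := by
  induction bs generalizing a with
  | nil => rfl
  | cons b bs ih =>
    rw [comb_cons, ih, List.length_cons, sum_range_succ', add_comm]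
    congr 1
    · exact sum_congr rfl fun k _ => by rw [dig_succ, List.getD_cons_succ]
    · simp [dig]

/-- Reduction of every entry. -/
noncomputable def red (n : ℕ) : ℕ → ℕ :=
  Nat.rec (fun _ => 0)
    (fun _ ih x => force x fun x =>
      Nat.add (Nat.mod (Nat.mod x 65536) 13) (Nat.mul 65536 (ih (Nat.div x 65536)))) n

lemma red_succ (n x : ℕ) : red (n + 1) x = x % 65536 % 13 + 65536 * red n (x / 65536) := by
  simp only [red]
  rw [force_eq]
  rfl

lemma red_eq (n x : ℕ) : red n x = pack n fun j => dig x j % 13 := by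
  induction n generalizing x with
  | zero => rfl
  | succ n ih =>
    simp only [red_succ, pack, ih, dig_succ]
    simp [dig]

/-- One row of a product. -/
noncomputable def step (a : ℕ) (B : List ℕ) : ℕ := red 78 (comb B a)

/-- The product. -/
noncomputable def mulP (A B : List ℕ) : List ℕ := A.map fun a => step a B

/-- The packed identity. -/
def oneP : List ℕ := (List.range 78).map fun i => 65536 ^ i

/-- The product along a list, computed row by row. -/
noncomputable def prodP (Bs : List (List ℕ)) : List ℕ := oneP.map fun a => Bs.foldl step a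

/-- Seventy-eight reduced rows. -/
noncomputable def okP (A : List ℕ) : Bool := A.length == 78 && A.all fun a => red 78 a == a

/-- The matrix of a packed matrix. -/
def toMat (A : List ℕ) : Matrix (Fin 78) (Fin 78) (ZMod 13) :=
  fun i j => (dig (A.getD i 0) j : ZMod 13)

lemma okP_getD {A : List ℕ} (h : okP A = true) :
    A.length = 78 ∧ ∀ i, A.getD i 0 = pack 78 fun j => dig (A.getD i 0) j % 13 := by
  simp only [okP, Bool.and_eq_true, beq_iff_eq, List.all_eq_true] at h
  refine ⟨h.1, fun i => ?_⟩
  rcases Nat.lt_or_ge i A.length with hi | hi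
  · rw [List.getD_eq_getElem _ _ hi, ← red_eq]
    exact (h.2 _ (List.getElem_mem hi)).symm
  · rw [List.getD_eq_default _ _ hi, ← red_eq]
    decide +kernel

lemma mulP_spec {A B : List ℕ} (hA : okP A = true) (hB : okP B = true) :
    toMat (mulP A B) = toMat A * toMat B := by
  obtain ⟨hlA, hA'⟩ := okP_getD hA
  obtain ⟨hlB, hB'⟩ := okP_getD hB
  ext i j
  rw [Matrix.mul_apply]
  simp only [toMat]
  rw [mulP, List.getD_eq_getElem _ _ (by simp [hlA]), List.getElem_map, step,
    ← List.getD_eq_getElem _ 0 (by simp [hlA]), red_eq,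
    dig_pack (fun k _ => lt_trans (Nat.mod_lt _ (by norm_num)) (by norm_num)) j.2,
    ZMod.natCast_mod, comb_eq, hlB]
  have hlt : ∀ (C : List ℕ), (∀ r, C.getD r 0 = pack 78 fun l => dig (C.getD r 0) l % 13) →
      ∀ r l, l < 78 → dig (C.getD r 0) l < 13 := by
    intro C hC r l hl
    rw [hC r, dig_pack (fun k _ => lt_trans (Nat.mod_lt _ (by norm_num)) (by norm_num)) hl]
    exact Nat.mod_lt _ (by norm_num)
  have hsum : ∑ k ∈ range 78, dig (A.getD i 0) k * B.getD k 0 =
      pack 78 fun l => ∑ k ∈ range 78, dig (A.getD i 0) k * dig (B.getD k 0) l := by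
    rw [pack_eq_sum]
    simp only [mul_sum]
    rw [sum_comm]
    refine sum_congr rfl fun k _ => ?_
    conv_lhs => rw [hB' k]
    rw [pack_eq_sum, mul_sum]
    refine sum_congr rfl fun l hl => ?_
    rw [Nat.mod_eq_of_lt (hlt B hB' k l (mem_range.mp hl))]
    ring
  rw [hsum, dig_pack ?_ j.2, Nat.cast_sum, Finset.sum_range]
  · simp only [Nat.cast_mul]
  · intro l hl
    calc ∑ k ∈ range 78, dig (A.getD i 0) k * dig (B.getD k 0) l
        ≤ ∑ k ∈ range 78, 12 * 12 := sum_le_sum fun k hk => Nat.mul_le_mul
          (Nat.le_of_lt_succ (hlt A hA' i k (mem_range.mp hk))) (Nat.le_of_lt_succ (hlt B hB' k l hl))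
      _ < 65536 := by simp

lemma red_red (n x : ℕ) : red n (red n x) = red n x := by
  induction n generalizing x with
  | zero => rfl
  | succ n ih =>
    have h : x % 65536 % 13 < 65536 := lt_trans (Nat.mod_lt _ (by norm_num)) (by norm_num)
    simp only [red_succ, Nat.add_mul_mod_self_left, Nat.mod_eq_of_lt h, Nat.mod_mod,
      Nat.add_mul_div_left _ _ (show 0 < 65536 by norm_num), Nat.div_eq_of_lt h, zero_add, ih]

lemma okP_mulP {A B : List ℕ} (hA : okP A = true) : okP (mulP A B) = true := by
  obtain ⟨hlA, -⟩ := okP_getD hA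
  simp only [okP, mulP, step, Bool.and_eq_true, beq_iff_eq, List.length_map, hlA, List.all_eq_true,
    List.mem_map, true_and]
  rintro a ⟨b, -, rfl⟩
  exact red_red _ _

lemma okP_oneP : okP oneP = true := by decide +kernel

lemma toMat_oneP : toMat oneP = 1 := by
  ext i j
  simp only [toMat, oneP, dig]
  rw [List.getD_eq_getElem _ _ (by simp), List.getElem_map, List.getElem_range, Matrix.one_apply]
  rcases lt_trichotomy (i : ℕ) j with h | h | h
  · rw [Nat.div_eq_of_lt (Nat.pow_lt_pow_right (by norm_num) h), if_neg (fun e => by omega)]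
    simp
  · rw [h, Nat.div_self (by positivity), if_pos (Fin.ext h)]
    simp
  · obtain ⟨d, hd⟩ := Nat.exists_eq_add_of_lt h
    rw [hd, show 65536 ^ ((j : ℕ) + d + 1) = 65536 * 65536 ^ d * 65536 ^ (j : ℕ) by ring,
      Nat.mul_div_cancel _ (by positivity), Nat.mul_mod_right, if_neg (fun e => by omega)]
    simp

lemma foldl_mulP (Bs : List (List ℕ)) (A : List ℕ) :
    Bs.foldl mulP A = A.map fun a => Bs.foldl step a := by
  induction Bs generalizing A with
  | nil => simp
  | cons B Bs ih => rw [List.foldl_cons, ih, mulP, List.map_map]; rfl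

lemma prodP_spec {Bs : List (List ℕ)} (h : ∀ B ∈ Bs, okP B = true) :
    toMat (prodP Bs) = (Bs.map toMat).prod := by
  suffices H : ∀ A, okP A = true → toMat (Bs.foldl mulP A) = toMat A * (Bs.map toMat).prod by
    rw [prodP, ← foldl_mulP, H _ okP_oneP, toMat_oneP, one_mul]
  induction Bs with
  | nil => intro A _; simp
  | cons B Bs ih =>
    intro A hA
    rw [List.foldl_cons, ih (fun C hC => h C (List.mem_cons_of_mem _ hC)) _ (okP_mulP hA),
      mulP_spec hA (h B List.mem_cons_self), List.map_cons, List.prod_cons, mul_assoc]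

/-- Ten rows of a product along a list against an expected matrix. -/
noncomputable def chunkOk (Bs : List (List ℕ)) (C : List ℕ) (c : ℕ) : Bool :=
  (List.range' (10 * c) 10).all fun i => Bs.foldl step (65536 ^ i) == C.getD i 0

lemma prodP_eq_of_chunks {Bs : List (List ℕ)} {C : List ℕ} (hC : C.length = 78)
    (h : ∀ c < 8, chunkOk Bs C c = true) : prodP Bs = C := by
  refine List.ext_getElem (by simp [prodP, oneP, hC]) fun i h₁ h₂ => ?_
  have hc := h (i / 10) (by omega)
  simp only [chunkOk, List.all_eq_true, beq_iff_eq] at hc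
  have := hc i (List.mem_range'_1.mpr (by omega))
  rw [List.getD_eq_getElem _ _ h₂] at this
  simpa [prodP, oneP] using this

end CfsgLib.SporRecognition.Fi22Rep
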